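import Mathlib
import Cfsg.Agent.Lib.Helper33.Breadth.Defs

/-!
# S3777 (BREADTH) package [LIN] (helper48): the linear algebra lemma on a group
-/

set_option autoImplicit false

namespace Cfsg.Agent.Lib.Helper48.Breadth

open Cfsg.Agent.Lib.Helper33.Breadth

universe u

section
variable {G : Type u} [Group G] {p : ℕ} [Fact p.Prime]

/-- additive functions `G → ZMod p` -/
def IsAdd (γ : G → ZMod p) : Prop := ∀ x z, γ (x * z) = γ x + γ z

theorem IsAdd.map_one {γ : G → ZMod p} (h : IsAdd γ) : γ 1 = 0 := by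
  have e := h 1 1
  rw [mul_one] at e
  linear_combination -e

theorem IsAdd.map_pow {γ : G → ZMod p} (h : IsAdd γ) (x : G) (n : ℕ) :
    γ (x ^ n) = n * γ x := by
  induction n with
  | zero => rw [pow_zero, h.map_one]; simp
  | succ n ih => rw [pow_succ, h, ih]; push_cast; ring

/-- the wedge of two functions -/
def wedge (γ δ : G → ZMod p) : G → G → ZMod p := fun x z => γ x * δ z - γ z * δ x

theorem wedge_apply (γ δ : G → ZMod p) (x z : G) :
    wedge γ δ x z = γ x * δ z - γ z * δ x := rfl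

/-- kill the value of an additive function by a power of `y` -/
theorem IsAdd.kill {χ : G → ZMod p} (hχ : IsAdd χ) {y : G} (hy : χ y = 1) (x : G) :
    χ (x * y ^ (-χ x).val) = 0 := by
  rw [hχ, hχ.map_pow, hy, ZMod.natCast_zmod_val]
  ring

/-- FACT A -/
theorem factA {β : G → G → ZMod p} (hb1 : ∀ x x' z, β (x * x') z = β x z + β x' z)
    (hb2 : ∀ x z z', β x (z * z') = β x z + β x z') (hb3 : ∀ x, β x x = 0)
    {χ : G → ZMod p} (hχ : IsAdd χ) {y : G} (hy : χ y = 1)
    (hv : ∀ x z, χ x = 0 → χ z = 0 → β x z = 0) :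
    β = wedge (fun x => β x y) χ := by
  have hanti : ∀ x z, β x z = - β z x := by
    intro x z
    have e := hb3 (x * z)
    rw [hb1, hb2, hb2, hb3, hb3] at e
    linear_combination e
  funext x z
  have h := hv _ _ (hχ.kill hy x) (hχ.kill hy z)
  rw [hb1, hb2, hb2] at h
  have e1 : β x (y ^ (-χ z).val) = ((-χ z).val : ZMod p) * β x y :=
    IsAdd.map_pow (γ := fun t => β x t) (fun a b => hb2 x a b) y _
  have e2 : β (y ^ (-χ x).val) z = ((-χ x).val : ZMod p) * β y z :=
    IsAdd.map_pow (γ := fun t => β t z) (fun a b => hb1 a b z) y _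
  have e3 : β (y ^ (-χ x).val) (y ^ (-χ z).val) = 0 := by
    have e4 : β (y ^ (-χ x).val) (y ^ (-χ z).val) =
        ((-χ x).val : ZMod p) * β y (y ^ (-χ z).val) :=
      IsAdd.map_pow (γ := fun t => β t (y ^ (-χ z).val)) (fun a b => hb1 a b _) y _
    have e5 : β y (y ^ (-χ z).val) = ((-χ z).val : ZMod p) * β y y :=
      IsAdd.map_pow (γ := fun t => β y t) (fun a b => hb2 y a b) y _
    rw [e4, e5, hb3, mul_zero, mul_zero]
  rw [e1, e2, e3, ZMod.natCast_zmod_val, ZMod.natCast_zmod_val] at h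
  have E := hanti y z
  rw [wedge_apply]
  linear_combination h + χ x * E

/-- the additive functions vanishing at `y` -/
def addSub (G : Type u) [Group G] (p : ℕ) [Fact p.Prime] (y : G) :
    Submodule (ZMod p) (G → ZMod p) where
  carrier := {γ | IsAdd γ ∧ γ y = 0}
  add_mem' := by
    rintro a b ⟨ha, ha0⟩ ⟨hb, hb0⟩
    refine ⟨fun x z => ?_, ?_⟩
    · simp only [Pi.add_apply]
      rw [ha, hb]
      ring
    · simp only [Pi.add_apply]
      rw [ha0, hb0, add_zero]
  zero_mem' := ⟨fun x z => by simp, rfl⟩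
  smul_mem' := by
    rintro c a ⟨ha, ha0⟩
    refine ⟨fun x z => ?_, ?_⟩
    · simp only [Pi.smul_apply, smul_eq_mul]
      rw [ha]
      ring
    · simp only [Pi.smul_apply, smul_eq_mul]
      rw [ha0, mul_zero]

theorem mem_addSub {y : G} {γ : G → ZMod p} : γ ∈ addSub G p y ↔ IsAdd γ ∧ γ y = 0 := Iff.rfl

end

/-- **[LIN]** -/
theorem pkgLin (hE3 : PkgE3.{u}) : PkgLin.{u} := by
  intro G _ _ p _ L h1 h2 h3 h4 χ₀ hχ hχ0 h5
  have hχ' : IsAdd χ₀ := hχ
  -- `y` with `χ₀ y = 1`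
  obtain ⟨x0, hx0⟩ := hχ0
  obtain ⟨y, hy⟩ : ∃ y, χ₀ y = 1 := by
    refine ⟨x0 ^ ((χ₀ x0)⁻¹).val, ?_⟩
    rw [hχ'.map_pow, ZMod.natCast_zmod_val]
    exact inv_mul_cancel₀ hx0
  -- the space `U₁`
  have hnt : Nontrivial ↥(addSub G p y) := by
    by_contra hcon
    rw [not_nontrivial_iff_subsingleton] at hcon
    have hzero : ∀ γ : G → ZMod p, IsAdd γ → γ y = 0 → γ = 0 := by
      intro γ hγ hγy
      have e := Subsingleton.elim (⟨γ, ⟨hγ, hγy⟩⟩ : ↥(addSub G p y)) 0
      exact congrArg Subtype.val e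
    obtain ⟨β, hβL, hβ0⟩ := h4
    apply hβ0
    have hψ : (fun x => β x y) = 0 :=
      hzero _ (fun a b => h1 β hβL a b y) (h3 β hβL y)
    funext x z
    have hγ : (fun t => β x t - β x y * χ₀ t) = 0 := by
      apply hzero
      · intro a b
        show β x (a * b) - β x y * χ₀ (a * b) = (β x a - β x y * χ₀ a) + (β x b - β x y * χ₀ b)
        rw [h2 β hβL, hχ]
        ring
      · show β x y - β x y * χ₀ y = 0
        rw [hy]
        ring
    have e1 := congrFun hγ z
    have e2 := congrFun hψ x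
    simp only [Pi.zero_apply] at e1 e2
    rw [e2] at e1
    show β x z = 0
    linear_combination e1
  -- `Ψ β = β · y`
  obtain ⟨Ψ, hΨ⟩ : ∃ Ψ : ↥L →ₗ[ZMod p] ↥(addSub G p y), ∀ β x, (Ψ β).1 x = β.1 x y :=
    ⟨{ toFun := fun β => ⟨fun x => β.1 x y,
          ⟨fun a b => h1 β.1 β.2 a b y, h3 β.1 β.2 y⟩⟩
       map_add' := fun _ _ => rfl
       map_smul' := fun _ _ => rfl }, fun _ _ => rfl⟩
  -- `ρ β = β - ψ_β ∧ χ₀`
  obtain ⟨ρ, hρ⟩ : ∃ ρ : ↥L →ₗ[ZMod p] (G → G → ZMod p),
      ∀ β, ρ β = β.1 - wedge (fun x => β.1 x y) χ₀ :=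
    ⟨{ toFun := fun β => β.1 - wedge (fun x => β.1 x y) χ₀
       map_add' := by
         intro a b
         funext x z
         simp only [Submodule.coe_add, Pi.add_apply, Pi.sub_apply, wedge_apply]
         ring
       map_smul' := by
         intro c a
         funext x z
         simp only [Submodule.coe_smul, Pi.smul_apply, Pi.sub_apply, wedge_apply, smul_eq_mul,
           RingHom.id_apply]
         ring }, fun _ => rfl⟩
  have hker : LinearMap.ker ρ = ⊥ := by
    rw [LinearMap.ker_eq_bot']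
    intro β hβ
    rw [hρ, sub_eq_zero] at hβ
    apply Subtype.ext
    apply h5 β.1 β.2
    intro x z hx hz
    rw [hβ, wedge_apply, hx, hz]
    ring
  obtain ⟨g, hg⟩ := LinearMap.exists_leftInverse_of_injective ρ hker
  have hg' : ∀ β, g (ρ β) = β := fun β => LinearMap.congr_fun hg β
  -- the wedge as a bilinear map
  obtain ⟨W, hW⟩ : ∃ W : (G → ZMod p) →ₗ[ZMod p] (G → ZMod p) →ₗ[ZMod p] (G → G → ZMod p),
      ∀ γ δ, W γ δ = wedge γ δ :=
    ⟨LinearMap.mk₂ (ZMod p) wedge
      (by intro a b c; funext x z; simp only [wedge_apply, Pi.add_apply]; ring)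
      (by intro c a b; funext x z; simp only [wedge_apply, Pi.smul_apply, smul_eq_mul]; ring)
      (by intro a b c; funext x z; simp only [wedge_apply, Pi.add_apply]; ring)
      (by intro c a b; funext x z; simp only [wedge_apply, Pi.smul_apply, smul_eq_mul]; ring),
      fun _ _ => rfl⟩
  -- the alternating product on `U₁`
  obtain ⟨θ, hθ⟩ : ∃ θ : ↥(addSub G p y) →ₗ[ZMod p] ↥(addSub G p y) →ₗ[ZMod p] ↥(addSub G p y),
      ∀ c a, θ c a = - Ψ (g (wedge c.1 a.1)) :=
    ⟨-((W.compl₁₂ (addSub G p y).subtype (addSub G p y).subtype).compr₂ (Ψ ∘ₗ g)), by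
      intro c a
      simp only [LinearMap.neg_apply, LinearMap.compr₂_apply, LinearMap.compl₁₂_apply,
        Submodule.subtype_apply, LinearMap.comp_apply, hW]⟩
  have hθalt : ∀ c, θ c c = 0 := by
    intro c
    rw [hθ]
    have e : wedge c.1 c.1 = 0 := by
      funext x z
      rw [wedge_apply]
      simp only [Pi.zero_apply]
      ring
    rw [e, map_zero, map_zero, neg_zero]
  obtain ⟨a, ha0, ha⟩ := hE3 p θ hθalt
  have haadd : IsAdd a.1 := a.2.1
  have hay : a.1 y = 0 := a.2.2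
  -- the new character
  have hχadd : IsAdd (fun x => χ₀ x + a.1 x) := by
    intro x z
    show χ₀ (x * z) + a.1 (x * z) = (χ₀ x + a.1 x) + (χ₀ z + a.1 z)
    rw [hχ, haadd]
    ring
  have hχy : (fun x => χ₀ x + a.1 x) y = 1 := by
    show χ₀ y + a.1 y = 1
    rw [hy, hay, add_zero]
  refine ⟨fun x => χ₀ x + a.1 x, hχadd, ⟨y, ?_⟩, ?_, ?_⟩
  · rw [hχy]
    exact one_ne_zero
  · -- some `x` in the kernel of `χ₀` with `a x ≠ 0`
    have hex : ∃ x, a.1 x ≠ 0 := by
      by_contra hcon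
      push_neg at hcon
      apply ha0
      apply Subtype.ext
      funext x
      exact hcon x
    obtain ⟨x, hx⟩ := hex
    refine ⟨x * y ^ (-χ₀ x).val, hχ'.kill hy x, ?_⟩
    show χ₀ (x * y ^ (-χ₀ x).val) + a.1 (x * y ^ (-χ₀ x).val) ≠ 0
    rw [hχ'.kill hy x, zero_add, haadd, haadd.map_pow, hay, mul_zero, add_zero]
    exact hx
  · intro β hβL hβv
    have hA := factA (h1 β hβL) (h2 β hβL) (h3 β hβL) hχadd hχy hβv
    -- `ρ β = ψ_β ∧ a`
    have hρβ : ρ ⟨β, hβL⟩ = wedge (Ψ ⟨β, hβL⟩).1 a.1 := by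
      rw [hρ]
      funext x z
      have e := congrFun (congrFun hA x) z
      simp only [Pi.sub_apply, wedge_apply, hΨ] at e ⊢
      linear_combination e
    have hc : Ψ ⟨β, hβL⟩ + θ (Ψ ⟨β, hβL⟩) a = 0 := by
      rw [hθ, ← hρβ, hg']
      exact add_neg_cancel _
    have hΨ0 := ha _ hc
    have hψ0 : ∀ x, β x y = 0 := by
      intro x
      have e := hΨ ⟨β, hβL⟩ x
      rw [hΨ0] at e
      exact e.symm
    rw [hA]
    funext x z
    rw [wedge_apply, hψ0, hψ0]
    simp

end Cfsg.Agent.Lib.Helper48.Breadth
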